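import Cfsg.Agent.H130.War.Rk
import Cfsg.Agent.H295.War.Bridge
import Cfsg.Agent.H950.War.ERow

/-!
# S2453, L5 and L6: the rows `POmega` (helper130, with the engines of helper295 and helper950)

The engine of helper295 with the small rank input in the form `RKN` (true for every finite field), and the rows
`kl_pomega_odd`, `kl_pomega_plus`, `kl_pomega_minus`.
-/

set_option autoImplicit false
set_option linter.unusedSectionVars false

namespace Cfsg.Agent.H130.War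

open QuadraticMap Cfsg.Agent.LieClassical.OrthCore Cfsg.Agent.LieClassical.OrthTrans
  Cfsg.Agent.LieClassical.OrthFinite Cfsg.Agent.LieClassical.OrthForms Matrix Cfsg.Agent.H140.OreO Polynomial Module
  Cfsg.Agent.H295.War

section
variable {F V : Type*} [Field F] [AddCommGroup V] [Module F V] {n : ℕ} {Q : QuadraticForm F V}

/-- **The engine in the model.** -/
theorem engN_model [Finite F] [FiniteDimensional F V] (hQ : Nondeg Q) (hn : 3 ≤ n)
    (hV : finrank F V + 1 ≤ n) (hRK : RKN F n (finrank F V)) {A : GL (Fin n) F}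
    (hdet : (A : Matrix (Fin n) (Fin n) F).det = 1)
    (hns : (A : Matrix (Fin n) (Fin n) F) = 1 ∨ ∀ c : F, (A : Matrix (Fin n) (Fin n) F) ≠ c • (1 : Matrix (Fin n) (Fin n) F))
    {u₁ u₂ : M F V n ≃ₗ[F] M F V n} (hu₁ : u₁ ∈ Um n Q) (hu₂ : u₂ ∈ Up n Q) {p f : F[X]} (hp : NP n p)
    (hf : NP (n - 1) f) :
    ∃ (X Y : GL (Fin n) F), ∃ v ∈ Om (MQ n Q), ∃ v' ∈ Om (MQ n Q),
      u₁ * lev A 1 * u₂ = (v * lev X 1 * v⁻¹) * (v' * lev Y 1 * v'⁻¹) ∧
      (X : Matrix (Fin n) (Fin n) F).charpoly = p ∧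
      ((Y : Matrix (Fin n) (Fin n) F).charpoly = (Polynomial.X - C 1) * f ∨
        (Y : Matrix (Fin n) (Fin n) F).charpoly = p ∨
        ((Y⁻¹ : GL (Fin n) F) : Matrix (Fin n) (Fin n) F).charpoly = p) := by
  classical
  -- the general conclusion for `A = X * Z⁻¹`
  have key1 : ∀ X Z : GL (Fin n) F, A = X * Z⁻¹ → (X : Matrix (Fin n) (Fin n) F).charpoly = p →
      (Z : Matrix (Fin n) (Fin n) F).charpoly = p →
      ∃ v ∈ Om (MQ n Q), ∃ v' ∈ Om (MQ n Q),
      u₁ * lev A 1 * u₂ = (v * lev X 1 * v⁻¹) * (v' * lev Z⁻¹ 1 * v'⁻¹) := by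
    intro X Z hA hX hZ
    obtain ⟨v₁, -, hv₁, e₁⟩ := (hp.copr (V := V) (by omega) hX).exists_um (O Q).one_mem hu₁
    obtain ⟨v₂, -, hv₂, e₂⟩ := (hp.copr (V := V) (by omega) hZ).exists_up (O Q).one_mem ((Up n Q).inv_mem hu₂)
    refine ⟨v₁, hv₁, v₂, hv₂, ?_⟩
    have e3 : lev A (1 : V ≃ₗ[F] V) = lev X 1 * (lev Z 1)⁻¹ := by
      rw [hA, ← lev_inv, inv_one, ← lev_mul, mul_one]
    have e4 : lev Z⁻¹ (1 : V ≃ₗ[F] V) = (lev Z 1)⁻¹ := by rw [← lev_inv, inv_one]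
    rw [e4, ← e₁, e3]
    have e5 : v₂ * (lev Z 1)⁻¹ * v₂⁻¹ = (v₂ * lev Z 1 * v₂⁻¹)⁻¹ := by group
    rw [e5, ← e₂]
    group
  have key2 : ∀ X Y : GL (Fin n) F, A = X * Y → (X : Matrix (Fin n) (Fin n) F).charpoly = p →
      (Y : Matrix (Fin n) (Fin n) F).charpoly = p →
      ∃ v ∈ Om (MQ n Q), ∃ v' ∈ Om (MQ n Q),
      u₁ * lev A 1 * u₂ = (v * lev X 1 * v⁻¹) * (v' * lev Y 1 * v'⁻¹) := by
    intro X Y hA hX hY
    obtain ⟨v₁, -, hv₁, e₁⟩ := (hp.copr (V := V) (by omega) hX).exists_um (O Q).one_mem hu₁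
    obtain ⟨v₂, -, hv₂, e₂⟩ := (hp.copr (V := V) (by omega) hY).exists_up (O Q).one_mem
      (lev_conj_Up (A := Y) (h := 1) (O Q).one_mem hu₂)
    refine ⟨v₁, hv₁, v₂, hv₂, ?_⟩
    rw [← e₁, ← e₂]
    have e3 : lev A (1 : V ≃ₗ[F] V) = lev X 1 * lev Y 1 := by
      rw [hA, ← lev_mul, mul_one]
    rw [e3]
    group
  by_cases hA1 : (A : Matrix (Fin n) (Fin n) F) = 1
  · obtain ⟨X, hX⟩ := exists_matrix p hp.monic hp.coeff_ne hp.deg
    obtain ⟨v, hv, v', hv', e⟩ := key1 X X (by rw [mul_inv_cancel]; exact Units.ext hA1) hX hX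
    exact ⟨X, X⁻¹, v, hv, v', hv', e, hX, Or.inr (Or.inr (by rw [inv_inv]; exact hX))⟩
  by_cases hφ : ∃ φ ∈ annU u₂, φ ᵥ* (A : Matrix (Fin n) (Fin n) F) ∉ Submodule.span F {φ}
  · -- theorem A
    obtain ⟨φ, hφ, hφA⟩ := hφ
    have hφ0 : φ ≠ 0 := by
      rintro rfl
      apply hφA
      rw [zero_vecMul]
      exact Submodule.zero_mem _
    obtain ⟨k, rfl⟩ : ∃ k, n = k + 2 := ⟨n - 2, by omega⟩
    obtain ⟨x, y, hxy, hxp, c, hc, hyc, hφy, hK⟩ := exists_mul_phi (A : Matrix (Fin (k + 2)) (Fin (k + 2)) F)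
      (by rw [hdet]; exact one_ne_zero) hφ0 hφA hp.monic hp.deg hp.coeff_ne hf.monic
      (by rw [hf.deg]; rfl) hf.coeff_ne
    have hdx : x.det = 1 := det_of_charpoly hxp hp.c0
    have hdy : y.det = 1 := by
      have := congrArg Matrix.det hxy
      rw [hdet, det_mul, hdx, one_mul] at this
      exact this.symm
    have hc1 : c = 1 := by
      have h1 := hdy
      rw [det_eq_sign_charpoly_coeff, hyc, mul_coeff_zero, hf.c0, Fintype.card_fin] at h1
      have h2 : (k + 2 - 1) = k + 1 := rfl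
      rw [h2] at h1
      simp only [coeff_sub, coeff_X_zero, coeff_C_zero, zero_sub] at h1
      have h3 : (-1 : F) ^ (k + 2) * (-c * (-1) ^ (k + 1)) = c := by
        have h4 : (-1 : F) ^ (k + 2) * (-c * (-1) ^ (k + 1)) = c * ((-1) * (-1)) ^ (k + 2) := by
          rw [mul_pow, pow_succ (-1 : F) (k + 1)]
          ring
        rw [h4, neg_one_mul, neg_neg, one_pow, mul_one]
      rw [h3] at h1
      exact h1
    subst hc1
    let X : GL (Fin (k + 2)) F := Matrix.GeneralLinearGroup.mkOfDetNeZero x (by rw [hdx]; exact one_ne_zero)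
    let Y : GL (Fin (k + 2)) F := Matrix.GeneralLinearGroup.mkOfDetNeZero y (by rw [hdy]; exact one_ne_zero)
    have hYφ : PhiCop Y φ := phiCop_of hφ0 (by rw [one_smul] at hφy; exact hφy) hK hyc
      (hf.eval_ne (by omega) 1) (hf.eval_rev (by omega)) hf.cop
    have hX : (X : Matrix (Fin (k + 2)) (Fin (k + 2)) F).charpoly = p := hxp
    obtain ⟨v₁, -, hv₁, e₁⟩ := (hp.copr (V := V) (by omega) hX).exists_um (O Q).one_mem hu₁
    obtain ⟨v₂, hv₂, e₂⟩ := hYφ.exists_up hQ (⟨hu₂, hφ⟩ : u₂ ∈ Uphi Q φ)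
    refine ⟨X, Y, v₁, hv₁, v₂, hv₂, ?_, hX, Or.inl hyc⟩
    have hAXY : A = X * Y := Units.ext hxy
    have e3 : lev A (1 : V ≃ₗ[F] V) = lev X 1 * lev Y 1 := by
      rw [hAXY, ← lev_mul, mul_one]
    rw [← e₁, ← e₂, e3]
    group
  · -- small rank
    push Not at hφ
    have h1 := finrank_annU u₂
    obtain ⟨c, hc, hr⟩ := exists_scalar (by rw [hdet]; exact one_ne_zero) hφ (by omega)
    have hAc : (A : Matrix (Fin n) (Fin n) F) ≠ c • 1 := (hns.resolve_left hA1) c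
    have hrk : ((A : Matrix (Fin n) (Fin n) F) - c • 1).rank ≤ finrank F V := by omega
    by_cases hsc : p = C (c ^ n) * p.comp (C c⁻¹ * Polynomial.X)
    · obtain ⟨hg1, hg2, hg3, hg4⟩ := hp.dual
      obtain ⟨x, z, hxz, hx, hz⟩ := hRK _ c hdet hc hrk hAc p (C ((-1) ^ n) * p.reverse) hp (Or.inr rfl)
        (fun h' => hg4 (scale_inj hc (hsc.symm.trans h')))
      have hdz : z.det = 1 := det_of_charpoly hz hg3
      have hdx : x.det = 1 := det_of_charpoly hx hp.c0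
      let X : GL (Fin n) F := Matrix.GeneralLinearGroup.mkOfDetNeZero x (by rw [hdx]; exact one_ne_zero)
      let Z : GL (Fin n) F := Matrix.GeneralLinearGroup.mkOfDetNeZero z (by rw [hdz]; exact one_ne_zero)
      have hAXZ : A = X * Z⁻¹ := by
        rw [eq_mul_inv_iff_mul_eq]
        exact Units.ext hxz
      have hZ : ((Z⁻¹ : GL (Fin n) F) : Matrix (Fin n) (Fin n) F).charpoly = p := by
        have h2 := Matrix.charpoly_inv (Z : Matrix (Fin n) (Fin n) F) Z.isUnit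
        rw [← coe_units_inv] at h2
        have h3 : (Z : Matrix (Fin n) (Fin n) F) = z := rfl
        rw [h2, h3, ← Matrix.reverse_charpoly, hz, hdz, Ring.inverse_one, C_1, mul_one, Fintype.card_fin,
          reverse_mul_of_domain, reverse_C, rev_rev hp.coeff_ne, ← mul_assoc, ← C_1, ← C_neg, ← C_pow, ← C_mul,
          ← mul_pow, neg_one_mul, neg_neg, one_pow, C_1, one_mul]
      obtain ⟨v, hv, v', hv', e⟩ := key2 X Z⁻¹ hAXZ hx hZ
      exact ⟨X, Z⁻¹, v, hv, v', hv', e, hx, Or.inr (Or.inl hZ)⟩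
    · obtain ⟨x, z, hxz, hx, hz⟩ := hRK _ c hdet hc hrk hAc p p hp (Or.inl rfl) hsc
      have hdz : z.det = 1 := det_of_charpoly hz hp.c0
      have hdx : x.det = 1 := det_of_charpoly hx hp.c0
      let X : GL (Fin n) F := Matrix.GeneralLinearGroup.mkOfDetNeZero x (by rw [hdx]; exact one_ne_zero)
      let Z : GL (Fin n) F := Matrix.GeneralLinearGroup.mkOfDetNeZero z (by rw [hdz]; exact one_ne_zero)
      have hAXZ : A = X * Z⁻¹ := by
        rw [eq_mul_inv_iff_mul_eq]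
        exact Units.ext hxz
      obtain ⟨v, hv, v', hv', e⟩ := key1 X Z hAXZ hx hz
      exact ⟨X, Z⁻¹, v, hv, v', hv', e, hx, Or.inr (Or.inr (by rw [inv_inv]; exact hz))⟩

/-- **The engine.** -/
theorem engN [Finite F] [FiniteDimensional F V] (hQ : Nondeg Q) {m : ℕ} (hm : 3 ≤ m)
    (hV : finrank F V + 1 ≤ 3 * m) (hRK : RKN F m (finrank F V - 2 * m)) {g : V ≃ₗ[F] V} (hg : g ∈ O Q)
    (hB : BaseCorner m Q g) {p f : F[X]} (hp : NP m p) (hf : NP (m - 1) f) :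
    ∃ (w w' : Fin m → V) (hfr : Frame Q w w') (X Y : GL (Fin m) F), ∃ v ∈ Om (MQ m (res Q w w')),
      ∃ v' ∈ Om (MQ m (res Q w w')),
      autE hfr.toModel g = (v * lev X 1 * v⁻¹) * (v' * lev Y 1 * v'⁻¹) ∧
      (X : Matrix (Fin m) (Fin m) F).charpoly = p ∧
      ((Y : Matrix (Fin m) (Fin m) F).charpoly = (Polynomial.X - C 1) * f ∨
        (Y : Matrix (Fin m) (Fin m) F).charpoly = p ∨
        ((Y⁻¹ : GL (Fin m) F) : Matrix (Fin m) (Fin m) F).charpoly = p) := by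
  obtain ⟨w, w', hfr, hS, hdet, hA⟩ := hB
  have hfin := hfr.finrank_perp
  have hfin' : finrank F (perp Q w w') = finrank F V - 2 * m := by omega
  obtain ⟨u₁, hu₁, g₁, hg₁, u₂, hu₂, e⟩ := H141.SpinFacts.exists_decomp hfr hg
    (Matrix.GeneralLinearGroup.mkOfDetNeZero (corner Q g w w') (by rw [hdet]; exact one_ne_zero)) rfl
  have h1 := (H141.SpinFacts.schurOne_iff hfr hu₁ hu₂ e).1 hS
  subst h1
  obtain ⟨X, Y, v, hv, v', hv', e', hX, hY⟩ := engN_model (hfr.nondeg_res hQ) hm (by omega)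
    (by rw [hfin']; exact hRK)
    (A := Matrix.GeneralLinearGroup.mkOfDetNeZero (corner Q g w w') (by rw [hdet]; exact one_ne_zero)) hdet
    (hA.imp id And.left) hu₁ hu₂ hp hf
  exact ⟨w, w', hfr, X, Y, v, hv, v', hv', e.trans e', hX, hY⟩

/-- **The row**: `e`-th powers. -/
theorem rowN [Finite F] [FiniteDimensional F V] (hQ : Nondeg Q) {m : ℕ} (hm : 3 ≤ m)
    (hV : finrank F V + 1 ≤ 3 * m) (hRK : RKN F m (finrank F V - 2 * m)) {g : V ≃ₗ[F] V} (hg : g ∈ O Q)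
    (hB : BaseCorner m Q g) {r e : ℕ} (he : 1 ≤ e) {p f : F[X]} (hp : GP r e m p) (hf : GP r e (m - 1) f) :
    ∃ x ∈ Om Q, ∃ y ∈ Om Q, g = x ^ e * y ^ e ∧ (orderOf x).Coprime r ∧ (orderOf y).Coprime r := by
  obtain ⟨w, w', hfr, X, Y, v, hv, v', hv', h, hX, hY⟩ := engN hQ hm hV hRK hg hB hp.np hf.np
  have hQ1 := hfr.nondeg_res hQ
  have hG : Good (MQ m (res Q w w')) := by
    apply good_of_finite (nondeg_MQ hQ1)
    rw [← hfr.toModel.finrank_eq]
    have := hfr.finrank_perp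
    omega
  have he' : ∀ v, MQ m (res Q w w') (hfr.toModel v) = Q v := hfr.MQ_toModel
  have h1 : EP r e (Om (MQ m (res Q w w'))) (v * lev X 1 * v⁻¹) := (hp.ep hG he (by omega) hX).conj hv
  have h2 : EP r e (Om (MQ m (res Q w w'))) (v' * lev Y 1 * v'⁻¹) := by
    refine EP.conj ?_ hv'
    rcases hY with hY | hY | hY
    · exact hf.ep_one hG he (by omega) (by omega) hY
    · exact hp.ep hG he (by omega) hY
    · have h3 := (hp.ep hG he (by omega) hY).inv
      have h4 : (lev Y⁻¹ (1 : perp Q w w' ≃ₗ[F] perp Q w w'))⁻¹ = lev Y 1 := by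
        rw [← lev_inv, inv_inv, inv_one]
      rwa [h4] at h3
  obtain ⟨x, hx, ex, ox⟩ := h1
  obtain ⟨y, hy, ey, oy⟩ := h2
  have horder : ∀ z, orderOf ((autE hfr.toModel).symm z) = orderOf z := fun z =>
    orderOf_injective (autE hfr.toModel).symm.toMonoidHom (autE hfr.toModel).symm.injective z
  refine ⟨(autE hfr.toModel).symm x, ?_, (autE hfr.toModel).symm y, ?_, ?_, ?_, ?_⟩
  · rw [← autE_mem_Om he', MulEquiv.apply_symm_apply]; exact hx
  · rw [← autE_mem_Om he', MulEquiv.apply_symm_apply]; exact hy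
  · apply (autE hfr.toModel).injective
    rw [h, ex, ey, map_mul, map_pow, map_pow, MulEquiv.apply_symm_apply, MulEquiv.apply_symm_apply]
  · rw [horder]; exact ox
  · rw [horder]; exact oy



/-- the condition from the engine -/
theorem condN_of_gp [Finite F] [FiniteDimensional F V]
    (hQ : Nondeg Q) {m : ℕ} (hm : 3 ≤ m) (hV : finrank F V + 1 ≤ 3 * m)
    (hW : ∀ W, H434.Corn.MaxTS Q W → finrank F W = m) (hRK : RKN F m (finrank F V - 2 * m)) {r e : ℕ} (he : 1 ≤ e)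
    {p f : F[X]} (hp : GP r e m p) (hf : GP r e (m - 1) f) : H295.War.Cond r e Q := by
  intro g hg hs
  exact rowN hQ hm hV hRK (H434.Corn.mem_E_O hg) (H434.Corn.baseCorner hQ hg hs hm hW) he hp hf

end

section rows

open Cfsg.Agent.H544.War Cfsg

variable {F : Type*} [Field F] [Fintype F] {p m k l : ℕ}

theorem ee_pos' (hk : 2 ≤ k) (hl : 2 ≤ l) : 1 ≤ ee p k l :=
  Nat.ordCompl_pos p (Nat.lcm_ne_zero (by omega) (by omega))

theorem two_ne_of_odd (ho : Odd (Fintype.card F)) : (2 : F) ≠ 0 := by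
  apply Ring.two_ne_zero
  intro h
  have h1 := FiniteField.even_card_of_char_two h
  rw [Nat.odd_iff] at ho
  omega

/-- **the row `POmega^+_2m(q)`** -/
theorem kl_pomega_plus (hm : 4 ≤ m) (hp : p.Prime) [CharP F p] (hk : 2 ≤ k) (hl : 2 ≤ l) (hg : ¬ k.Coprime l)
    (hd : p ∣ k ∨ p ∣ l) (hbig : (max k l) ^ (8 * (max k l) ^ 2) ≤ Nat.card (POmega F (quadFormPlus m F))) :
    Cfsg.Agent.H134.War.KL (POmega F (quadFormPlus m F)) k l := by
  have : Fact p.Prime := ⟨hp⟩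
  obtain ⟨P, hP⟩ := gp_plus (d := m) hm hk hl hg hd hbig (Or.inl rfl)
  obtain ⟨f, hf⟩ := gp_plus (d := m - 1) hm hk hl hg hd hbig (Or.inr rfl)
  have hfr : finrank F (Fin m ⊕ Fin m → F) = 2 * m := by
    rw [finrank_fintype_fun_eq_card, Fintype.card_sum, Fintype.card_fin]
    ring
  apply SS.kl' (p := p)
  apply ss_plus
  refine condN_of_gp (nondeg_plusForm m F) (by omega) (by omega) (witt_plus m) ?_ (ee_pos' hk hl) hP hf
  rw [hfr, Nat.sub_self]
  exact rkn_of rk_zero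

/-- **the row `POmega_(2m+1)(q)`** -/
theorem kl_pomega_odd (ho : Odd (Fintype.card F)) (hm : 3 ≤ m) (hp : p.Prime) [CharP F p] (hk : 2 ≤ k) (hl : 2 ≤ l)
    (hg : ¬ k.Coprime l) (hd : p ∣ k ∨ p ∣ l)
    (hbig : (max k l) ^ (8 * (max k l) ^ 2) ≤ Nat.card (POmega F (quadFormOdd m F))) :
    Cfsg.Agent.H134.War.KL (POmega F (quadFormOdd m F)) k l := by
  have : Fact p.Prime := ⟨hp⟩
  have h2 := two_ne_of_odd ho
  apply SS.kl' (p := p)
  apply ss_odd
  rcases Nat.lt_or_ge 3 m with h | h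
  · obtain ⟨P, hP⟩ := gp_odd (d := m) ho hm hk hl hg hd hbig (Or.inl rfl)
    obtain ⟨f, hf⟩ := gp_odd (d := m - 1) ho hm hk hl hg hd hbig (Or.inr ⟨h, rfl⟩)
    have hfr : finrank F (Unit ⊕ Fin m ⊕ Fin m → F) = 2 * m + 1 := by
      rw [finrank_fintype_fun_eq_card, Fintype.card_sum, Fintype.card_sum, Fintype.card_fin, Fintype.card_unit]
      ring
    refine condN_of_gp (nondeg_oddForm m F h2) hm (by omega) (witt_odd m) ?_ (ee_pos' hk hl) hP hf
    rw [hfr, Nat.add_sub_cancel_left]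
    exact rkn h (by norm_num)
  · obtain rfl : m = 3 := by omega
    intro g hg' hs
    exact Cfsg.Agent.H950.War.EB.cond_odd_three ho hk hl hg hd hbig g (H434.Corn.mem_E_O hg')
      (H434.Corn.baseCorner (nondeg_oddForm 3 F h2) hg' hs le_rfl (witt_odd 3))

/-- **the row `POmega^-_(2m+2)(q)`**, `m` = Witt index -/
theorem kl_pomega_minus {a b : F} (hab : ∀ z₁ z₂ : F, z₁ ^ 2 + a * z₁ * z₂ + b * z₂ ^ 2 = 0 → z₁ = 0 ∧ z₂ = 0)
    (hm : 3 ≤ m) (hp : p.Prime) [CharP F p] (hk : 2 ≤ k) (hl : 2 ≤ l)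
    (hg : ¬ k.Coprime l) (hd : p ∣ k ∨ p ∣ l)
    (hbig : (max k l) ^ (8 * (max k l) ^ 2) ≤ Nat.card (POmega F (quadFormMinus m F a b))) :
    Cfsg.Agent.H134.War.KL (POmega F (quadFormMinus m F a b)) k l := by
  have : Fact p.Prime := ⟨hp⟩
  apply SS.kl' (p := p)
  apply ss_minus
  rcases Nat.lt_or_ge 3 m with h | h
  · obtain ⟨P, hP⟩ := gp_minus (d := m) hm hab hk hl hg hd hbig (Or.inl rfl)
    obtain ⟨f, hf⟩ := gp_minus (d := m - 1) hm hab hk hl hg hd hbig (Or.inr ⟨h, rfl⟩)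
    have hfr : finrank F ((Fin m ⊕ Fin m) ⊕ Fin 2 → F) = 2 * m + 2 := by
      rw [finrank_fintype_fun_eq_card, Fintype.card_sum, Fintype.card_sum, Fintype.card_fin, Fintype.card_fin]
      ring
    refine condN_of_gp (nondeg_minusForm m F a b hab) hm (by omega) (witt_minus m a b hab) ?_ (ee_pos' hk hl) hP hf
    rw [hfr, Nat.add_sub_cancel_left]
    exact rkn h (by norm_num)
  · obtain rfl : m = 3 := by omega
    intro g hg' hs
    exact Cfsg.Agent.H950.War.EB.cond_minus_three hab hk hl hg hd hbig g (H434.Corn.mem_E_O hg')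
      (H434.Corn.baseCorner (nondeg_minusForm 3 F a b hab) hg' hs le_rfl (witt_minus 3 a b hab))

end rows

end Cfsg.Agent.H130.War
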